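import Mathlib
import Cfsg.Agent.Lib.Helper95.OFX.Defs
import Cfsg.Agent.Lib.Helper45.OrthOrder

/-!
# OFX (S5977), package [KSUB]

A subgroup of the centralizer, in the isometry group of `quadFormPlus d F`, of a self-adjoint
`α₁` with `α₁ * α₁ = a`, of the order of the orthogonal group of dimension `d` over the field
`L = F(√a)` with `q²` elements.

`L := QuadraticAlgebra F a 0` (elements `re + im ω`, `ω² = a`).  The `F`-linear map
`T : L^J → F^(OI d)` pairs the coordinates so that `quadFormPlus d F (T z) = (Q_L z).im`, where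
`Q_L` is `quadFormPlus (d/2) L` (`d` even) or `quadFormOdd (d/2) L` (`d` odd).  Then
`α₁ := T ∘ (ω • ·) ∘ T⁻¹` and `S := {T ∘ g ∘ T⁻¹ : g` an isometry of `Q_L}`.
-/

set_option autoImplicit false

namespace Cfsg.Agent.Lib.Helper60.OFX

open Matrix Cfsg.Agent.Lib.Helper95.OFX

universe u

/-- The field `F(√a)`. -/
abbrev KL (F : Type u) [Field F] (a : F) : Type u := QuadraticAlgebra F a 0

section core

variable {F : Type u} [Field F] {a : F} {J : Type} [Fintype J] [DecidableEq J] {d : ℕ}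

/-- Multiplication by `ω = √a`, as an `F`-linear map. -/
noncomputable def omegaMap (a : F) (J : Type) : (J → KL F a) →ₗ[F] (J → KL F a) where
  toFun z := fun s => (⟨0, 1⟩ : KL F a) * z s
  map_add' z w := by
    funext s
    simp [mul_add]
  map_smul' c z := by
    funext s
    simp

/-- A matrix over `L`, as an `F`-linear map. -/
noncomputable def gMap (g : Matrix J J (KL F a)) : (J → KL F a) →ₗ[F] (J → KL F a) where
  toFun z := g *ᵥ z
  map_add' z w := Matrix.mulVec_add _ _ _
  map_smul' c z := by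
    simp [Matrix.mulVec_smul]

/-- The coordinate map. -/
noncomputable def Tmap (X Y : (J → KL F a) →ₗ[F] (J → F)) (σ : Fin d ≃ J) :
    (J → KL F a) →ₗ[F] (OI d → F) where
  toFun z := Sum.elim (fun j => X z (σ j)) (fun j => Y z (σ j))
  map_add' z w := by
    funext s
    cases s <;> simp
  map_smul' c z := by
    funext s
    cases s <;> simp

/-- Transport of an `F`-linear endomorphism of `L^J` to a matrix. -/
noncomputable def Mt (T : (J → KL F a) ≃ₗ[F] (OI d → F))
    (φ : (J → KL F a) →ₗ[F] (J → KL F a)) : Matrix (OI d) (OI d) F :=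
  LinearMap.toMatrix' ((T : (J → KL F a) →ₗ[F] (OI d → F)) ∘ₗ φ ∘ₗ
    (T.symm : (OI d → F) →ₗ[F] (J → KL F a)))

theorem Mt_mulVec (T : (J → KL F a) ≃ₗ[F] (OI d → F))
    (φ : (J → KL F a) →ₗ[F] (J → KL F a)) (x : OI d → F) :
    Mt T φ *ᵥ x = T (φ (T.symm x)) := by
  unfold Mt
  rw [← Matrix.toLin'_apply, Matrix.toLin'_toMatrix']
  rfl

theorem ksub_core {F : Type u} [Field F] (a : F) [Fact (∀ r : F, r ^ 2 ≠ a + 0 * r)]
    {J : Type} [Fintype J] [DecidableEq J] (d : ℕ) (σ : Fin d ≃ J)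
    (QL : (J → KL F a) → KL F a)
    (X Y : (J → KL F a) →ₗ[F] (J → F))
    (hXY : ∀ z, X z = 0 → Y z = 0 → z = 0)
    (hQ : ∀ z, ∑ s, X z s * Y z s = (QL z).im)
    (hsa : ∀ z z' : J → KL F a,
      QL (omegaMap a J z + z') - QL (omegaMap a J z) - QL z' =
        QL (z + omegaMap a J z') - QL z - QL (omegaMap a J z')) :
    ∃ (α₁ : Matrix (OI d) (OI d) F) (S : Subgroup (GL (OI d) F)),
      IsAlphaO d a α₁ ∧ S ≤ Cfsg.isometryGroup F (Cfsg.quadFormPlus d F) ∧
      (∀ g ∈ S, (g : Matrix (OI d) (OI d) F) * α₁ = α₁ * (g : Matrix (OI d) (OI d) F)) ∧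
      Nat.card S = Nat.card (Cfsg.isometryGroup (KL F a) QL) := by
  classical
  have hinj : Function.Injective (Tmap X Y σ : (J → KL F a) →ₗ[F] (OI d → F)) := by
    rw [injective_iff_map_eq_zero]
    intro z hz
    apply hXY
    · funext s
      have := congrFun hz (Sum.inl (σ.symm s))
      simpa [Tmap] using this
    · funext s
      have := congrFun hz (Sum.inr (σ.symm s))
      simpa [Tmap] using this
  have hfin : Module.finrank F (J → KL F a) = Module.finrank F (OI d → F) := by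
    rw [Module.finrank_pi_fintype, Module.finrank_fintype_fun_eq_card]
    have hc : Fintype.card J = d := by
      rw [← Fintype.card_congr σ, Fintype.card_fin]
    simp [QuadraticAlgebra.finrank_eq_two, hc]
    ring
  let T : (J → KL F a) ≃ₗ[F] (OI d → F) :=
    LinearMap.linearEquivOfInjective (Tmap X Y σ) hinj hfin
  have hTapp : ∀ z, T z = Tmap X Y σ z := fun z => rfl
  have hTQ : ∀ z, Cfsg.quadFormPlus d F (T z) = (QL z).im := by
    intro z
    rw [hTapp, ← hQ z]
    unfold Cfsg.quadFormPlus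
    simp only [Tmap, LinearMap.coe_mk, AddHom.coe_mk, Sum.elim_inl, Sum.elim_inr]
    exact Equiv.sum_comp σ (fun s => X z s * Y z s)
  have hpol : ∀ z z', QuadraticMap.polar (Cfsg.quadFormPlus d F) (T z) (T z') =
      (QL (z + z') - QL z - QL z').im := by
    intro z z'
    unfold QuadraticMap.polar
    rw [← map_add, hTQ, hTQ, hTQ]
    simp
  have hA_one : Mt T (gMap (1 : Matrix J J (KL F a))) = 1 := by
    apply Matrix.mulVec_injective
    funext x
    rw [Mt_mulVec]
    simp [gMap]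
  have hA_mul : ∀ g h : Matrix J J (KL F a),
      Mt T (gMap (g * h)) = Mt T (gMap g) * Mt T (gMap h) := by
    intro g h
    apply Matrix.mulVec_injective
    funext x
    rw [← Matrix.mulVec_mulVec, Mt_mulVec, Mt_mulVec, Mt_mulVec]
    simp [gMap, Matrix.mulVec_mulVec]
  let Φ : GL J (KL F a) →* GL (OI d) F :=
    { toFun := fun g => ⟨Mt T (gMap (g : Matrix J J (KL F a))),
        Mt T (gMap ((g⁻¹ : GL J (KL F a)) : Matrix J J (KL F a))),
        by rw [← hA_mul, ← Units.val_mul, mul_inv_cancel, Units.val_one, hA_one],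
        by rw [← hA_mul, ← Units.val_mul, inv_mul_cancel, Units.val_one, hA_one]⟩
      map_one' := Units.ext (by simpa using hA_one)
      map_mul' := fun g h => Units.ext (by simpa using hA_mul g h) }
  have hΦ : ∀ g : GL J (KL F a), ((Φ g : GL (OI d) F) : Matrix (OI d) (OI d) F) =
      Mt T (gMap (g : Matrix J J (KL F a))) := fun g => rfl
  have hΦinj : Function.Injective Φ := by
    intro g h hgh
    have h2 : Mt T (gMap (g : Matrix J J (KL F a))) = Mt T (gMap (h : Matrix J J (KL F a))) := by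
      rw [← hΦ, ← hΦ, hgh]
    apply Units.ext
    apply Matrix.mulVec_injective
    funext z
    have h3 := congrFun (congrArg Matrix.mulVec h2) (T z)
    rw [Mt_mulVec, Mt_mulVec, LinearEquiv.symm_apply_apply] at h3
    exact T.injective h3
  refine ⟨Mt T (omegaMap a J), (Cfsg.isometryGroup (KL F a) QL).map Φ, ⟨?_, ?_⟩, ?_, ?_, ?_⟩
  · apply Matrix.mulVec_injective
    funext x
    rw [← Matrix.mulVec_mulVec, Mt_mulVec, Mt_mulVec]
    simp only [LinearEquiv.symm_apply_apply]
    have h1 : omegaMap a J (omegaMap a J (T.symm x)) = a • T.symm x := by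
      funext s
      simp only [omegaMap, LinearMap.coe_mk, AddHom.coe_mk, Pi.smul_apply]
      ext <;> simp
    rw [h1, map_smul, LinearEquiv.apply_symm_apply, Matrix.smul_mulVec, Matrix.one_mulVec]
  · intro u v
    rw [Mt_mulVec, Mt_mulVec]
    obtain ⟨z, rfl⟩ := T.surjective u
    obtain ⟨z', rfl⟩ := T.surjective v
    simp only [LinearEquiv.symm_apply_apply]
    rw [hpol, hpol, hsa]
  · rintro _ ⟨g, hg, rfl⟩
    intro u v
    show Cfsg.quadFormPlus d F (((Φ g : GL (OI d) F) : Matrix (OI d) (OI d) F) *ᵥ u) =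
      Cfsg.quadFormPlus d F u
    rw [hΦ, Mt_mulVec]
    obtain ⟨z, rfl⟩ := T.surjective u
    rw [LinearEquiv.symm_apply_apply, hTQ, hTQ]
    have h4 : QL ((g : Matrix J J (KL F a)) *ᵥ z) = QL z := hg z z
    show (QL ((g : Matrix J J (KL F a)) *ᵥ z)).im = (QL z).im
    rw [h4]
  · rintro _ ⟨g, hg, rfl⟩
    apply Matrix.mulVec_injective
    funext x
    rw [← Matrix.mulVec_mulVec, ← Matrix.mulVec_mulVec, hΦ, Mt_mulVec, Mt_mulVec, Mt_mulVec,
      Mt_mulVec]
    simp only [LinearEquiv.symm_apply_apply]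
    congr 1
    funext s
    simp [gMap, omegaMap, Matrix.mulVec, dotProduct, Finset.mul_sum, mul_left_comm]
  · exact Subgroup.card_map_of_injective hΦinj

end core

section concrete

variable {F : Type u} [Field F] {a : F}

/-- The imaginary part as an additive map. -/
def imHom (F : Type u) [Field F] (a : F) : KL F a →+ F where
  toFun z := z.im
  map_zero' := rfl
  map_add' _ _ := rfl

theorem im_sum {κ : Type} (t : Finset κ) (f : κ → KL F a) :
    (∑ k ∈ t, f k).im = ∑ k ∈ t, (f k).im :=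
  map_sum (imHom F a) f t

/-! ### `d` even -/

noncomputable def Xe (F : Type u) [Field F] (a : F) (e : ℕ) :
    (Fin e ⊕ Fin e → KL F a) →ₗ[F] (Fin e ⊕ Fin e → F) where
  toFun z := Sum.elim (fun k => (z (Sum.inl k)).re) (fun k => (z (Sum.inl k)).im)
  map_add' z w := by
    funext s
    cases s <;> simp
  map_smul' c z := by
    funext s
    cases s <;> simp

noncomputable def Ye (F : Type u) [Field F] (a : F) (e : ℕ) :
    (Fin e ⊕ Fin e → KL F a) →ₗ[F] (Fin e ⊕ Fin e → F) where
  toFun z := Sum.elim (fun k => (z (Sum.inr k)).im) (fun k => (z (Sum.inr k)).re)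
  map_add' z w := by
    funext s
    cases s <;> simp
  map_smul' c z := by
    funext s
    cases s <;> simp

theorem even_XY (e : ℕ) (z : Fin e ⊕ Fin e → KL F a) (hX : Xe F a e z = 0) (hY : Ye F a e z = 0) :
    z = 0 := by
  funext s
  rcases s with k | k
  · ext
    · simpa [Xe] using congrFun hX (Sum.inl k)
    · simpa [Xe] using congrFun hX (Sum.inr k)
  · ext
    · simpa [Ye] using congrFun hY (Sum.inr k)
    · simpa [Ye] using congrFun hY (Sum.inl k)

theorem even_Q [Fact (∀ r : F, r ^ 2 ≠ a + 0 * r)] (e : ℕ) (z : Fin e ⊕ Fin e → KL F a) :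
    ∑ s, Xe F a e z s * Ye F a e z s = (Cfsg.quadFormPlus e (KL F a) z).im := by
  unfold Cfsg.quadFormPlus
  rw [im_sum, Fintype.sum_sum_type, ← Finset.sum_add_distrib]
  apply Finset.sum_congr rfl
  intro k _
  simp [Xe, Ye]

theorem even_sa [Fact (∀ r : F, r ^ 2 ≠ a + 0 * r)] (e : ℕ) (z z' : Fin e ⊕ Fin e → KL F a) :
    Cfsg.quadFormPlus e (KL F a) (omegaMap a _ z + z') -
        Cfsg.quadFormPlus e (KL F a) (omegaMap a _ z) - Cfsg.quadFormPlus e (KL F a) z' =
      Cfsg.quadFormPlus e (KL F a) (z + omegaMap a _ z') - Cfsg.quadFormPlus e (KL F a) z -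
        Cfsg.quadFormPlus e (KL F a) (omegaMap a _ z') := by
  simp only [Cfsg.quadFormPlus, omegaMap, LinearMap.coe_mk, AddHom.coe_mk, Pi.add_apply]
  rw [← Finset.sum_sub_distrib, ← Finset.sum_sub_distrib, ← Finset.sum_sub_distrib,
    ← Finset.sum_sub_distrib]
  apply Finset.sum_congr rfl
  intro k _
  ring

/-! ### `d` odd -/

noncomputable def Xo (F : Type u) [Field F] (a : F) (e : ℕ) :
    (Unit ⊕ (Fin e ⊕ Fin e) → KL F a) →ₗ[F] (Unit ⊕ (Fin e ⊕ Fin e) → F) where
  toFun z := Sum.elim (fun _ => (z (Sum.inl ())).re)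
    (Sum.elim (fun k => (z (Sum.inr (Sum.inl k))).re) (fun k => (z (Sum.inr (Sum.inl k))).im))
  map_add' z w := by
    funext s
    rcases s with _ | k | k <;> simp
  map_smul' c z := by
    funext s
    rcases s with _ | k | k <;> simp

noncomputable def Yo (F : Type u) [Field F] (a : F) (e : ℕ) :
    (Unit ⊕ (Fin e ⊕ Fin e) → KL F a) →ₗ[F] (Unit ⊕ (Fin e ⊕ Fin e) → F) where
  toFun z := Sum.elim (fun _ => 2 * (z (Sum.inl ())).im)
    (Sum.elim (fun k => (z (Sum.inr (Sum.inr k))).im) (fun k => (z (Sum.inr (Sum.inr k))).re))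
  map_add' z w := by
    funext s
    rcases s with _ | k | k <;> simp [mul_add]
  map_smul' c z := by
    funext s
    rcases s with _ | k | k <;> simp [mul_left_comm]

theorem odd_XY (h2 : (2 : F) ≠ 0) (e : ℕ) (z : Unit ⊕ (Fin e ⊕ Fin e) → KL F a)
    (hX : Xo F a e z = 0) (hY : Yo F a e z = 0) : z = 0 := by
  funext s
  rcases s with _ | k | k
  · ext
    · simpa [Xo] using congrFun hX (Sum.inl ())
    · have := congrFun hY (Sum.inl ())
      simpa [Yo, h2] using this
  · ext
    · simpa [Xo] using congrFun hX (Sum.inr (Sum.inl k))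
    · simpa [Xo] using congrFun hX (Sum.inr (Sum.inr k))
  · ext
    · simpa [Yo] using congrFun hY (Sum.inr (Sum.inr k))
    · simpa [Yo] using congrFun hY (Sum.inr (Sum.inl k))

theorem odd_Q [Fact (∀ r : F, r ^ 2 ≠ a + 0 * r)] (e : ℕ)
    (z : Unit ⊕ (Fin e ⊕ Fin e) → KL F a) :
    ∑ s, Xo F a e z s * Yo F a e z s = (Cfsg.quadFormOdd e (KL F a) z).im := by
  unfold Cfsg.quadFormOdd
  rw [QuadraticAlgebra.im_add, im_sum, Fintype.sum_sum_type, Fintype.sum_sum_type,
    ← Finset.sum_add_distrib]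
  congr 1
  · simp [Xo, Yo, pow_two]
    ring
  · apply Finset.sum_congr rfl
    intro k _
    simp [Xo, Yo]

theorem odd_sa [Fact (∀ r : F, r ^ 2 ≠ a + 0 * r)] (e : ℕ)
    (z z' : Unit ⊕ (Fin e ⊕ Fin e) → KL F a) :
    Cfsg.quadFormOdd e (KL F a) (omegaMap a _ z + z') -
        Cfsg.quadFormOdd e (KL F a) (omegaMap a _ z) - Cfsg.quadFormOdd e (KL F a) z' =
      Cfsg.quadFormOdd e (KL F a) (z + omegaMap a _ z') - Cfsg.quadFormOdd e (KL F a) z -
        Cfsg.quadFormOdd e (KL F a) (omegaMap a _ z') := by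
  simp only [Cfsg.quadFormOdd, omegaMap, LinearMap.coe_mk, AddHom.coe_mk, Pi.add_apply]
  have key : ∀ (A B C A' B' C' SA SB SC SA' SB' SC' : KL F a), A - B - C = A' - B' - C' →
      SA - SB - SC = SA' - SB' - SC' →
      (A + SA) - (B + SB) - (C + SC) = (A' + SA') - (B' + SB') - (C' + SC') := by
    intro A B C A' B' C' SA SB SC SA' SB' SC' h1 h2
    linear_combination h1 + h2
  apply key
  · ring
  · rw [← Finset.sum_sub_distrib, ← Finset.sum_sub_distrib, ← Finset.sum_sub_distrib,
      ← Finset.sum_sub_distrib]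
    apply Finset.sum_congr rfl
    intro k _
    ring

end concrete

/-- [KSUB] -/
theorem pkgKSub : PkgKSub.{u} := by
  intro F _ _ hodd d hd a ha
  haveI : Fact (∀ r : F, r ^ 2 ≠ a + 0 * r) :=
    ⟨fun r hr => ha ⟨r, by rw [← pow_two, hr]; ring⟩⟩
  letI : Fintype (KL F a) := Fintype.ofEquiv (F × F) (QuadraticAlgebra.equivProd a 0).symm
  have hcardL : Fintype.card (KL F a) = (Fintype.card F) ^ 2 := by
    rw [Fintype.card_congr (QuadraticAlgebra.equivProd a 0), Fintype.card_prod, pow_two]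
  have h2 : (2 : F) ≠ 0 := Cfsg.Agent.Lib.Helper45.two_ne_zero_of_odd_card' hodd
  rcases Nat.even_or_odd d with hev | hod
  · obtain ⟨e, he⟩ := hev
    have he1 : 1 ≤ e := by omega
    have hc : Fintype.card (Fin e ⊕ Fin e) = d := by simp; omega
    obtain ⟨α₁, S, h1, h2', h3, h4⟩ := ksub_core a d (Fintype.equivFinOfCardEq hc).symm
      (Cfsg.quadFormPlus e (KL F a)) (Xe F a e) (Ye F a e) (even_XY e) (even_Q e) (even_sa e)
    refine ⟨α₁, S, h1, h2', h3, ?_⟩
    rw [h4, Cfsg.Agent.Lib.Helper45.card_GO_plus hcardL e he1]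
    have hd2 : d / 2 = e := by omega
    unfold oKOrd
    rw [if_pos ⟨e, he⟩, hd2]
  · obtain ⟨e, he⟩ := hod
    have hc : Fintype.card (Unit ⊕ (Fin e ⊕ Fin e)) = d := by simp; omega
    obtain ⟨α₁, S, h1, h2', h3, h4⟩ := ksub_core a d (Fintype.equivFinOfCardEq hc).symm
      (Cfsg.quadFormOdd e (KL F a)) (Xo F a e) (Yo F a e) (odd_XY h2 e) (odd_Q e) (odd_sa e)
    refine ⟨α₁, S, h1, h2', h3, ?_⟩
    rw [h4, Cfsg.Agent.Lib.Helper45.card_GO_odd hcardL (hodd.pow) e]
    have hd2 : d / 2 = e := by omega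
    have hne : ¬ Even d := by
      rw [Nat.not_even_iff_odd]
      exact ⟨e, he⟩
    unfold oKOrd
    rw [if_neg hne, hd2]

end Cfsg.Agent.Lib.Helper60.OFX
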